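import Cfsg.Agent.H107.EP.Eight
import Cfsg.Agent.H59.EP.UB
import Cfsg.Agent.H173.EP.LineBound
import Cfsg.Agent.S0249

/-!
# S3499, row S5818 + S5821: the index bound for the socle `L₃(4)` (helper107)
-/

set_option autoImplicit false

namespace Cfsg.Agent.H107.EP

open Subgroup Cfsg Cfsg.Agent.H284 Cfsg.Agent.H419.EP Cfsg.Agent.H59.EP

theorem not_comm_l34 {K : Type*} [Field K] [Fintype K] (hK : Fintype.card K = 4) :
    ¬ ∀ a b : Matrix.ProjectiveSpecialLinearGroup (Fin 3) K, a * b = b * a := by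
  intro hcomm
  have hs : IsSimpleGroup (Matrix.ProjectiveSpecialLinearGroup (Fin 3) K) := S0249.result 3 le_rfl
  let : CommGroup (Matrix.ProjectiveSpecialLinearGroup (Fin 3) K) := { mul_comm := hcomm }
  have h1 : (Nat.card (Matrix.ProjectiveSpecialLinearGroup (Fin 3) K)).Prime :=
    IsSimpleGroup.prime_card
  rw [card_l34 hK] at h1
  norm_num at h1

/-- the index bound for a group of order `|A|` given by its factorisation, `TwoGen` as a hypothesis -/
theorem index_le_list (hg : TwoGen.{0}) {Q : Type} [Group Q] [Finite Q] {A : Subgroup Q} {Γ : Subgroup (MulAut Q)}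
    (hs : IsSimpleGroup Q) (h : EPT A Γ)
    (hab : ∀ K : Subgroup Q, K ≤ A → (∀ a ∈ A, ∀ k ∈ K, a * k * a⁻¹ ∈ K) → (∀ a ∈ K, ∀ b ∈ K, a * b = b * a) → K = ⊥)
    (l : List (ℕ × ℕ)) (h1 : ∀ x ∈ l, x.1.Prime ∧ 0 < x.2) (h2 : (l.map Prod.fst).Nodup)
    (h5 : ∀ x ∈ l, 5 ≤ x.1 → x.2 = 1) {N n : ℕ} (hA : Nat.card A = N) (hc : N = (l.map fun x => x.1 ^ x.2).prod)
    (hn : 1 + ((l.map fun x => gal x.1 x.2).sum * (N / 6) + N ^ 2 / 60) * (2 * (N / 6)) ≤ n) :
    A.index ≤ n := by
  subst hA
  exact index_le_of (EPT.ncard_le_list h hg hab l h1 h2 h5 hc)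
    (H173.EP.ub1 hs h (by norm_num) fun _ hx => EPT.six_le h hab hx) hn

theorem l34_of (hg : TwoGen.{0}) : L34 := by
  intro Q _ _ hs A Γ h K _ _ hK hsoc
  have hab := fun (X : Subgroup Q) hXA hXn hXc =>
    hsoc.no_abelian (S0249.result (F := K) 3 le_rfl) (not_comm_l34 hK) (K := X) hXA hXn hXc
  obtain ⟨k, hk, hA⟩ := card_of_soc hK hsoc
  have hkm : k ∈ Nat.divisors 12 := Nat.mem_divisors.2 ⟨hk, by norm_num⟩
  rw [show Nat.divisors 12 = {1, 2, 3, 4, 6, 12} by decide] at hkm
  simp only [Finset.mem_insert, Finset.mem_singleton] at hkm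
  rcases hkm with rfl | rfl | rfl | rfl | rfl | rfl
  · exact index_le_list hg hs h hab [(2, 6), (3, 2), (5, 1), (7, 1)] (by norm_num) (by decide) (by decide) hA
      (by decide) (by decide +kernel)
  · exact index_le_list hg hs h hab [(2, 7), (3, 2), (5, 1), (7, 1)] (by norm_num) (by decide) (by decide) hA
      (by decide) (by decide +kernel)
  · exact index_le_list hg hs h hab [(2, 6), (3, 3), (5, 1), (7, 1)] (by norm_num) (by decide) (by decide) hA
      (by decide) (by decide +kernel)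
  · exact index_le_list hg hs h hab [(2, 8), (3, 2), (5, 1), (7, 1)] (by norm_num) (by decide) (by decide) hA
      (by decide) (by decide +kernel)
  · exact index_le_list hg hs h hab [(2, 7), (3, 3), (5, 1), (7, 1)] (by norm_num) (by decide) (by decide) hA
      (by decide) (by decide +kernel)
  · exact index_le_list hg hs h hab [(2, 8), (3, 3), (5, 1), (7, 1)] (by norm_num) (by decide) (by decide) hA
      (by decide) (by decide +kernel)

end Cfsg.Agent.H107.EP
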